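import Mathlib
import Cfsg.Agent.Lib.DetParity.Basic

/-!
# Parity from a self-centralizing element of prime order
-/

set_option autoImplicit false

namespace CfsgLib.DetParity

open Cfsg CfsgLib.Chars Module
open scoped ComplexConjugate BigOperators

universe u v

variable {G : Type u} [Group G] [Finite G]

/-- A homomorphism to an abelian group reaching an involution makes the derived index even. -/
theorem even_index_of_hom {A : Type v} [CommGroup A] (f : G →* A) {g : G} (h : orderOf (f g) = 2) :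
    Even (commutator G).index := by
  have h1 : Abelianization.lift f (Abelianization.of g) = f g := Abelianization.lift_apply_of f g
  have h2 : orderOf (f g) ∣ orderOf (Abelianization.of g) := h1 ▸ orderOf_map_dvd _ _
  have h3 : orderOf (Abelianization.of g) ∣ Nat.card (Abelianization G) := orderOf_dvd_natCard _
  rw [h] at h2
  exact even_iff_two_dvd.mpr ((h2.trans h3).trans (dvd_of_eq rfl))

theorem even_index_two (x : G) (hx : orderOf x = 2) (hodd : ¬ 2 ∣ (Subgroup.zpowers x).index) :
    Even (commutator G).index := by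
  classical
  haveI := Fintype.ofFinite G
  refine even_index_of_hom (Equiv.Perm.sign.comp (MulAction.toPermHom G G)) (g := x) ?_
  set σ := MulAction.toPermHom G G x with hσ
  have hσ2 : σ ^ 2 = 1 := by rw [hσ, ← map_pow, ← hx, pow_orderOf_eq_one, map_one]
  have hfix : Function.fixedPoints σ = ∅ := by
    ext y
    simp only [Function.mem_fixedPoints_iff, Set.mem_empty_iff_false, iff_false]
    intro hy
    have h1 : x * y = y := hy
    rw [mul_eq_right] at h1
    simp [h1] at hx
  have hrep : σ.cycleType = Multiset.replicate σ.cycleType.card 2 :=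
    Multiset.eq_replicate_card.mpr fun n hn => by
      have h1 := Equiv.Perm.dvd_of_mem_cycleType hn
      have h2 := Equiv.Perm.two_le_of_mem_cycleType hn
      have h3 : n ∣ 2 := h1.trans (orderOf_dvd_of_pow_eq_one hσ2)
      have := Nat.le_of_dvd two_pos h3
      omega
  have hs : Equiv.Perm.sign σ = -1 := by
    rw [Equiv.Perm.sign_of_cycleType_eq_replicate two_pos hrep, if_neg (by decide)]
    have h0 : Fintype.card (Function.fixedPoints σ) = 0 := by
      rw [Fintype.card_eq_zero_iff]
      exact ⟨fun z => by simpa [hfix] using z.2⟩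
    rw [h0, Nat.sub_zero, ← Nat.card_eq_fintype_card,
      ← (Subgroup.zpowers x).card_mul_index, Nat.card_zpowers, hx, Nat.mul_div_cancel_left _ two_pos]
    exact (Nat.not_even_iff_odd.mp (fun h => hodd (even_iff_two_dvd.mp h))).neg_one_pow
  rw [MonoidHom.comp_apply, ← hσ, hs]
  exact orderOf_eq_prime (by simp) (by decide)

variable {p : ℕ}

/-- The core argument. -/
theorem parity (hp : p.Prime) (x : G) (hx : orderOf x = p)
    (hC : Subgroup.centralizer ({x} : Set G) = Subgroup.zpowers x) (t : ℕ)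
    (ht : Nat.card {C : ConjClasses G // ∃ g ∈ C.carrier, orderOf g = p} = t)
    (χ : IrrCharacter G) (hχ : charDegree (χ : G → ℂ) + 1 = p) :
    Even t ∨ Even (commutator G).index := by
  classical
  haveI : Fact p.Prime := ⟨hp⟩
  haveI := Fintype.ofFinite G
  set P : Subgroup G := Subgroup.zpowers x with hPdef
  have hPcard : Nat.card P = p := by rw [hPdef, Nat.card_zpowers, hx]
  have hgen : ∀ y ∈ P, y ≠ 1 → Subgroup.zpowers y = P := by
    intro y hy h1
    refine Subgroup.eq_of_le_of_card_ge (Subgroup.zpowers_le.mpr hy) ?_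
    rw [hPcard, Nat.card_zpowers]
    refine ((Nat.dvd_prime hp).mp ?_).resolve_left (fun h => h1 (orderOf_eq_one_iff.mp h)) |>.ge
    rw [← hPcard]
    have := orderOf_dvd_natCard (⟨y, hy⟩ : P)
    rwa [← orderOf_injective P.subtype P.subtype_injective ⟨y, hy⟩] at this
  have hcomm : ∀ a ∈ P, ∀ b ∈ P, a * b = b * a := by
    rintro a ⟨i, rfl⟩ b ⟨j, rfl⟩
    exact (Commute.refl x).zpow_zpow i j
  have hcentP : ∀ y ∈ P, y ≠ 1 → Subgroup.centralizer ({y} : Set G) = P := by
    intro y hy h1
    apply le_antisymm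
    · intro g hg
      rw [← hC]
      have h2 : x ∈ Subgroup.zpowers y := by rw [hgen y hy h1]; exact Subgroup.mem_zpowers x
      obtain ⟨k, rfl⟩ := h2
      rw [Subgroup.mem_centralizer_singleton_iff] at hg ⊢
      exact ((show Commute g y from hg).zpow_right k)
    · intro g hg
      rw [Subgroup.mem_centralizer_singleton_iff]
      exact hcomm g hg y hy
  -- `P` is a Sylow subgroup
  have hPp : IsPGroup p P := IsPGroup.of_card (n := 1) (by rw [hPcard, pow_one])
  obtain ⟨S, hPS⟩ := hPp.exists_le_sylow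
  have hSP : (S : Subgroup G) = P := by
    refine le_antisymm ?_ hPS
    haveI : Nontrivial (S : Subgroup G) := by
      refine ⟨⟨⟨x, hPS (Subgroup.mem_zpowers x)⟩, 1, fun h => ?_⟩⟩
      have h1 : x = 1 := congrArg Subtype.val h
      exact hp.one_lt.ne' (hx ▸ orderOf_eq_one_iff.mpr h1)
    haveI := S.isPGroup'.center_nontrivial
    obtain ⟨z, hz⟩ := exists_ne (1 : Subgroup.center (S : Subgroup G))
    have hz' := Subgroup.mem_center_iff.mp z.2
    have hzP : ((z : (S : Subgroup G)) : G) ∈ P := by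
      rw [← hC, Subgroup.mem_centralizer_singleton_iff]
      exact (congrArg Subtype.val (hz' ⟨x, hPS (Subgroup.mem_zpowers x)⟩)).symm
    intro g hg
    rw [← hcentP _ hzP (fun h => hz (by ext; exact h)), Subgroup.mem_centralizer_singleton_iff]
    exact congrArg Subtype.val (hz' ⟨g, hg⟩)
  have hnidx : ¬ p ∣ P.index := hSP ▸ S.not_dvd_index
  -- `p = 2`
  by_cases hp2 : p = 2
  · subst hp2
    exact Or.inr (even_index_two x hx hnidx)
  rcases Nat.even_or_odd t with hte | hto
  · exact Or.inl hte
  refine Or.inr ?_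
  -- normalizer
  set N : Subgroup G := Subgroup.normalizer (P : Set G) with hNdef
  have hPN : P ≤ N := Subgroup.le_normalizer
  have hmemN : ∀ g y : G, y ∈ P → y ≠ 1 → g * y * g⁻¹ ∈ P → g ∈ N := by
    intro g y hy h1 hgy
    have hz : Subgroup.zpowers (g * y * g⁻¹) = P := hgen _ hgy (by simpa [conj_eq_one_iff] using h1)
    rw [hNdef, Subgroup.mem_normalizer_iff]
    intro z
    constructor
    · intro h
      rw [← hgen y hy h1] at h
      obtain ⟨k, rfl⟩ := h
      rw [← conj_zpow]
      exact P.zpow_mem hgy k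
    · intro h
      rw [← hz] at h
      obtain ⟨k, hk⟩ := h
      have : z = y ^ k := by
        have hk' : g * y ^ k * g⁻¹ = g * z * g⁻¹ := by rw [← conj_zpow]; exact hk
        exact (mul_left_cancel (mul_right_cancel hk')).symm
      exact this ▸ P.zpow_mem hy k
  haveI : (P.subgroupOf N).Normal := by
    rw [hNdef]; exact Subgroup.normal_in_normalizer
  have hQcard : Nat.card (P.subgroupOf N) = p := by
    rw [Nat.card_congr (Subgroup.subgroupOfEquivOfLe hPN).toEquiv, hPcard]
  obtain ⟨H₀, hH₀⟩ := Subgroup.exists_right_complement'_of_coprime (N := P.subgroupOf N) (by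
    rw [hQcard]
    exact hp.coprime_iff_not_dvd.mpr fun h => hnidx (h.trans (Subgroup.relIndex_dvd_index_of_le hPN)))
  set H : Subgroup G := H₀.map N.subtype with hHdef
  have hHN : H ≤ N := by rw [hHdef]; exact Subgroup.map_subtype_le _
  set e := Nat.card H with hedef
  have hH₀card : Nat.card H₀ = e :=
    Nat.card_congr (H₀.equivMapOfInjective N.subtype N.subtype_injective).toEquiv
  have hNcard : Nat.card N = p * e := by
    rw [← hH₀.card_mul_card, hQcard, hH₀card]
  have hHP : ∀ h ∈ H, h ∈ P → h = 1 := by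
    rintro h ⟨h', hh', rfl⟩ hP'
    have : h' ∈ P.subgroupOf N ⊓ H₀ := ⟨hP', hh'⟩
    rw [hH₀.disjoint.eq_bot, Subgroup.mem_bot] at this
    simp [this]
  -- `H` embeds in the automorphisms of `P`
  let ψ : H →* MulAut P :=
    P.normalizerMonoidHom.comp (Subgroup.inclusion hHN)
  have hψ : Function.Injective ψ := by
    rw [← MonoidHom.ker_eq_bot_iff, Subgroup.eq_bot_iff_forall]
    intro h hh
    have h1 : (⟨x, Subgroup.mem_zpowers x⟩ : P) = ψ h ⟨x, Subgroup.mem_zpowers x⟩ := by
      rw [MonoidHom.mem_ker.mp hh]; rfl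
    have h2 : x = (h : G) * x * (h : G)⁻¹ := congrArg Subtype.val h1
    refine Subtype.ext (hHP _ h.2 ?_)
    rw [← hC, Subgroup.mem_centralizer_singleton_iff]
    exact (eq_mul_inv_iff_mul_eq.mp h2).symm
  haveI : IsCyclic P := by rw [hPdef]; infer_instance
  let aut : MulAut P ≃* (ZMod (Nat.card P))ˣ := IsCyclic.mulAutMulEquiv P
  have hedvd : e ∣ p - 1 := by
    have := Subgroup.card_dvd_of_injective (aut.toMonoidHom.comp ψ) (aut.injective.comp hψ)
    rwa [Nat.card_eq_fintype_card (α := (ZMod _)ˣ), ZMod.card_units_eq_totient, hPcard,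
      Nat.totient_prime hp] at this
  haveI hHcyc : IsCyclic H := by
    haveI : IsCyclic (ZMod p)ˣ := inferInstance
    haveI : IsCyclic (ZMod (Nat.card P))ˣ := by rw [hPcard]; infer_instance
    exact isCyclic_of_injective (aut.toMonoidHom.comp ψ) (aut.injective.comp hψ)
  -- fibres of conjugation of `P#`
  obtain ⟨d, ρ, hρ, hc⟩ := χ.2
  have hdeg : charDegree (χ : G → ℂ) = d := by
    rw [← hc]; simp [charDegree, Representation.char_one]
  have hd1 : d + 1 = p := hdeg ▸ hχ
  set Ps : Finset G := Finset.univ.filter (fun y => y ∈ P ∧ y ≠ 1) with hPs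
  set Sp : Finset G := Finset.univ.filter (fun s => orderOf s = p) with hSp
  have horder : ∀ y ∈ P, y ≠ 1 → orderOf y = p := by
    intro y hy h1
    rw [← Nat.card_zpowers, hgen y hy h1, hPcard]
  have hrep : ∀ s, orderOf s = p → ∃ g y, y ∈ P ∧ y ≠ 1 ∧ g * y * g⁻¹ = s := by
    intro s hs
    obtain ⟨T, hT⟩ := (IsPGroup.of_card (n := 1) (G := Subgroup.zpowers s)
      (by rw [Nat.card_zpowers, hs, pow_one])).exists_le_sylow
    obtain ⟨g, hg⟩ := MulAction.exists_smul_eq G S T
    have hsT : s ∈ ((g • S : Sylow p G) : Subgroup G) := hg ▸ hT (Subgroup.mem_zpowers s)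
    rw [Sylow.coe_subgroup_smul, Subgroup.mem_pointwise_smul_iff_inv_smul_mem, ← map_inv, MulAut.smul_def,
      MulAut.conj_apply, inv_inv, hSP] at hsT
    refine ⟨g, g⁻¹ * s * g, hsT, ?_, by group⟩
    intro h
    have h' : s = 1 := by
      have := congrArg (fun z => g * z * g⁻¹) h
      simpa [mul_assoc] using this
    exact hp.one_lt.ne' (hs ▸ orderOf_eq_one_iff.mpr h')
  have hfib : ∀ F : G → ℂ, ∑ gy ∈ Finset.univ ×ˢ Ps, F (gy.1 * gy.2 * gy.1⁻¹) = (p * e : ℕ) * ∑ s ∈ Sp, F s := by
    intro F
    rw [← Finset.sum_fiberwise_of_maps_to (t := Sp) (g := fun gy : G × G => gy.1 * gy.2 * gy.1⁻¹), Finset.mul_sum]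
    · refine Finset.sum_congr rfl fun s hs => ?_
      rw [Finset.sum_congr rfl (fun gy hgy => by rw [(Finset.mem_filter.mp hgy).2]), Finset.sum_const,
        nsmul_eq_mul]
      congr 2
      obtain ⟨g₀, y₀, hy₀, hy₀1, hs₀⟩ := hrep s (Finset.mem_filter.mp hs).2
      rw [← hNcard, Nat.card_eq_fintype_card, Fintype.card_subtype]
      refine Finset.card_bij (fun gy _ => g₀⁻¹ * gy.1) ?_ ?_ ?_
      · intro gy hgy
        simp only [Finset.mem_filter, Finset.mem_product, Ps] at hgy
        obtain ⟨⟨_, _, hy, hy1⟩, he⟩ := hgy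
        refine Finset.mem_filter.mpr ⟨Finset.mem_univ _, hmemN _ gy.2 hy hy1 ?_⟩
        rw [show g₀⁻¹ * gy.1 * gy.2 * (g₀⁻¹ * gy.1)⁻¹ = g₀⁻¹ * (gy.1 * gy.2 * gy.1⁻¹) * g₀ by group, he,
          ← hs₀, show g₀⁻¹ * (g₀ * y₀ * g₀⁻¹) * g₀ = y₀ by group]
        exact hy₀
      · intro a ha b hb hab
        simp only [Finset.mem_filter] at ha hb
        have h1 : a.1 = b.1 := mul_left_cancel hab
        refine Prod.ext h1 ?_
        have h2 := ha.2.trans hb.2.symm
        rw [h1] at h2
        exact mul_left_cancel (mul_right_cancel h2)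
      · intro n hn
        have hn' : n ∈ N := (Finset.mem_filter.mp hn).2
        refine ⟨(g₀ * n, n⁻¹ * y₀ * n), ?_, by group⟩
        simp only [Finset.mem_filter, Finset.mem_product, Ps, Finset.mem_univ, true_and]
        refine ⟨⟨?_, ?_⟩, ?_⟩
        · exact (Subgroup.mem_normalizer_iff''.mp hn' y₀).mp hy₀
        · intro h
          apply hy₀1
          have := congrArg (fun z => n * z * n⁻¹) h
          simpa [mul_assoc] using this
        · rw [← hs₀]; group
    · intro gy hgy
      simp only [Finset.mem_product, Ps, Finset.mem_filter] at hgy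
      refine Finset.mem_filter.mpr ⟨Finset.mem_univ _, ?_⟩
      rw [← horder _ hgy.2.2.1 hgy.2.2.2]
      exact (orderOf_injective (MulAut.conj gy.1).toMonoidHom (MulAut.conj gy.1).injective gy.2)
  have hPscard : Ps.card = p - 1 := by
    have : Ps = (Finset.univ.filter (fun y => y ∈ P)).erase 1 := by
      ext y; simp [Ps, and_comm]
    rw [this, Finset.card_erase_of_mem (by simp [P.one_mem]), ← Fintype.card_subtype,
      ← Nat.card_eq_fintype_card, hPcard]
  -- number of classes
  have hte : t * e = p - 1 := by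
    have hclass : ∀ C : ConjClasses G, (∃ g ∈ C.carrier, orderOf g = p) →
        p * (Finset.univ.filter (fun s => ConjClasses.mk s = C)).card = Nat.card G := by
      rintro C ⟨g, hgC, hg⟩
      obtain ⟨c, y, hy, hy1, rfl⟩ := hrep g hg
      have hCy : C = ConjClasses.mk y := by
        rw [← ConjClasses.mem_carrier_iff_mk_eq.mp hgC]
        exact ConjClasses.mk_eq_mk_iff_isConj.mpr (isConj_iff.mpr ⟨c⁻¹, by group⟩)
      have h1 := sum_conj y (fun _ : G => (1 : ℂ))
      simp only [Finset.sum_const, nsmul_eq_mul, mul_one, Finset.card_univ, hcentP y hy hy1, hPcard] at h1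
      rw [hCy, Nat.card_eq_fintype_card]
      have e1 : (Finset.univ.filter (fun s => ConjClasses.mk s = ConjClasses.mk y)) =
          Finset.univ.filter (fun s => IsConj y s) := by
        ext s
        simp only [Finset.mem_filter, Finset.mem_univ, true_and, ConjClasses.mk_eq_mk_iff_isConj]
        exact isConj_comm
      rw [e1]
      have h1' := Nat.cast_injective (R := ℂ) ((Nat.cast_mul p _).trans h1.symm)
      convert h1' using 3
      ext s
      simp
    have hS : p * Sp.card = t * Nat.card G := by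
      haveI := Fintype.ofFinite (ConjClasses G)
      rw [Finset.card_eq_sum_card_fiberwise (f := ConjClasses.mk)
        (t := Finset.univ.filter (fun C : ConjClasses G => ∃ g ∈ C.carrier, orderOf g = p)), Finset.mul_sum,
        ← ht, Nat.card_eq_fintype_card (α := {C : ConjClasses G // _}), Fintype.card_subtype]
      · refine Finset.sum_const_nat fun C hC' => ?_
        have hC'' := (Finset.mem_filter.mp hC').2
        rw [← hclass C hC'']
        congr 2
        ext s
        simp only [Sp, Finset.mem_filter, Finset.mem_univ, true_and, and_iff_right_iff_imp]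
        rintro rfl
        obtain ⟨g, hgC, hg⟩ := hC''
        obtain ⟨c, rfl⟩ := isConj_iff.mp (ConjClasses.mk_eq_mk_iff_isConj.mp (ConjClasses.mem_carrier_iff_mk_eq.mp hgC))
        rw [← hg]
        exact (orderOf_injective (MulAut.conj c).toMonoidHom (MulAut.conj c).injective g)
      · intro s hs
        refine Finset.mem_coe.mpr (Finset.mem_filter.mpr ⟨Finset.mem_univ _, s, ConjClasses.mem_carrier_mk, ?_⟩)
        exact (Finset.mem_filter.mp hs).2
    have h1 := hfib (fun _ => 1)
    simp only [Finset.sum_const, nsmul_eq_mul, mul_one, Finset.card_product, Finset.card_univ, hPscard] at h1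
    have h2 : Nat.card G * (p - 1) = p * e * Sp.card := by
      rw [Nat.card_eq_fintype_card]
      exact_mod_cast h1
    have hG : 0 < Nat.card G := Nat.card_pos
    have h3 : Nat.card G * (p - 1) = Nat.card G * (t * e) := by
      calc Nat.card G * (p - 1) = e * (p * Sp.card) := by rw [h2]; ring
        _ = _ := by rw [hS]; ring
    exact (Nat.eq_of_mul_eq_mul_left hG h3).symm
  have hp5 : 2 < p := by have := hp.two_le; omega
  have hpe : Even (p - 1) := (hp.odd_of_ne_two hp2).elim fun k hk => ⟨k, by omega⟩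
  have hee : Even e := by
    rw [← hte] at hpe
    exact (Nat.even_mul.mp hpe).resolve_left (Nat.not_even_iff_odd.mpr hto)
  have he2 : 2 ≤ e := by
    have : 0 < e := Nat.card_pos
    obtain ⟨k, hk⟩ := hee
    omega
  -- class function facts
  have hcf : IsClassFunction G (χ : G → ℂ) := IsCharacter.isClassFunction (isCharacter_irr χ)
  have htrans : ∀ h ∈ H, h ≠ 1 → ∀ y ∈ P, (χ : G → ℂ) (h * y) = (χ : G → ℂ) h := by
    intro h hh h1 y hy
    let φ : P → P := fun z => ⟨h⁻¹ * (z : G) * h * (z : G)⁻¹, P.mul_mem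
      ((Subgroup.mem_normalizer_iff''.mp (hHN hh) _).mp z.2) (P.inv_mem z.2)⟩
    have hφ : Function.Injective φ := by
      intro z w hzw
      have hzw' : h⁻¹ * (z : G) * h * (z : G)⁻¹ = h⁻¹ * (w : G) * h * (w : G)⁻¹ := congrArg Subtype.val hzw
      by_contra hne
      set u : G := (w : G)⁻¹ * (z : G) with hu
      have huP : u ∈ P := P.mul_mem (P.inv_mem w.2) z.2
      have hu1 : u ≠ 1 := by
        rw [hu]; intro h'; apply hne; exact Subtype.ext (inv_mul_eq_one.mp h').symm
      have : h * u = u * h := by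
        have e1 : (z : G) * (w : G)⁻¹ = u := hcomm _ z.2 _ (P.inv_mem w.2)
        have e2 : h⁻¹ * u * h = u := by
          calc h⁻¹ * u * h = h⁻¹ * (w : G)⁻¹ * h * (h⁻¹ * (z : G) * h * (z : G)⁻¹) * (z : G) := by rw [hu]; group
            _ = (w : G)⁻¹ * (z : G) := by rw [hzw']; group
            _ = u := hu.symm
        calc h * u = h * (h⁻¹ * u * h) := by rw [e2]
          _ = u * h := by group
      apply h1
      refine hHP h hh ?_
      rw [← hcentP u huP hu1, Subgroup.mem_centralizer_singleton_iff]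
      exact this
    obtain ⟨z, hz⟩ := (Finite.injective_iff_surjective.mp hφ) ⟨y, hy⟩
    have hz' : h⁻¹ * (z : G) * h * (z : G)⁻¹ = y := congrArg Subtype.val hz
    rw [← hz', show h * (h⁻¹ * (z : G) * h * (z : G)⁻¹) = (z : G) * h * (z : G)⁻¹ by group]
    exact hcf h z
  -- second moment
  have hd : (χ : G → ℂ) 1 = (d : ℂ) := by rw [← hc]; simp [Representation.char_one]
  obtain ⟨a, M, had, haM, hsum, hsq⟩ := second_moment (isCharacter_irr χ) x hd
  rw [hx] at hsum hsq
  have hrange : ∀ F : G → ℂ, ∑ y : P, F (y : G) = ∑ k ∈ Finset.range p, F (x ^ k) := by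
    intro F
    rw [← hx]
    refine (Finset.sum_bij (fun k _ => (⟨x ^ k, Subgroup.npow_mem_zpowers x k⟩ : P)) ?_ ?_ ?_ ?_).symm
    · intros; exact Finset.mem_univ _
    · intro i hi j hj hij
      exact pow_injOn_Iio_orderOf (Finset.mem_range.mp hi) (Finset.mem_range.mp hj) (congrArg Subtype.val hij)
    · rintro ⟨y, hy⟩ _
      obtain ⟨k, hk, hk'⟩ := Finset.mem_image.mp (mem_zpowers_iff_mem_range_orderOf.mp hy)
      exact ⟨k, hk, Subtype.ext hk'⟩
    · intros; rfl
  -- `e` divides `a`
  have hea : e ∣ a := by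
    obtain ⟨A, hA, -⟩ := sum_subgroup ρ H
    obtain ⟨B, hB, -⟩ := sum_subgroup ρ N
    rw [hc] at hA hB
    have hbij : ∑ g : N, (χ : G → ℂ) (g : G) = ∑ h : H, ∑ y : P, (χ : G → ℂ) ((h : G) * (y : G)) := by
      rw [← Fintype.sum_prod_type']
      refine (Fintype.sum_bijective (fun hy : H × P => (⟨(hy.1 : G) * (hy.2 : G), N.mul_mem (hHN hy.1.2) (hPN hy.2.2)⟩ : N))
        ?_ _ _ (fun _ => rfl)).symm
      refine (Nat.bijective_iff_injective_and_card _).mpr ⟨?_, ?_⟩
      · rintro ⟨h, y⟩ ⟨h', y'⟩ he'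
        have he'' : (h : G) * (y : G) = (h' : G) * (y' : G) := congrArg Subtype.val he'
        have hm : (h' : G)⁻¹ * (h : G) ∈ P := by
          have : (h' : G)⁻¹ * (h : G) = (y' : G) * (y : G)⁻¹ := by
            rw [inv_mul_eq_iff_eq_mul, ← mul_assoc, ← he'', mul_inv_cancel_right]
          rw [this]; exact P.mul_mem y'.2 (P.inv_mem y.2)
        have h1 := inv_mul_eq_one.mp (hHP _ (H.mul_mem (H.inv_mem h'.2) h.2) hm)
        rw [h1] at he''
        exact Prod.ext (Subtype.ext h1.symm) (Subtype.ext (mul_left_cancel he''))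
      · rw [Nat.card_prod, hNcard, hPcard, mul_comm]
    have hinner : ∀ h : H, ∑ y : P, (χ : G → ℂ) ((h : G) * (y : G)) =
        (p : ℂ) * (χ : G → ℂ) (h : G) + if h = 1 then (p : ℂ) * a - (p : ℂ) * d else 0 := by
      intro h
      split_ifs with h1
      · subst h1
        simp only [OneMemClass.coe_one, one_mul]
        rw [hrange (fun g => (χ : G → ℂ) g), hsum, hd]
        ring
      · rw [Finset.sum_congr rfl (fun (y : P) _ => htrans h h.2 (fun h' => h1 (Subtype.ext h')) (y : G) y.2),
          Finset.sum_const, Finset.card_univ, ← Nat.card_eq_fintype_card, hPcard, nsmul_eq_mul, add_zero]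
    rw [hB] at hbij
    simp only [hinner, Finset.sum_add_distrib, ← Finset.mul_sum, hA, Finset.sum_ite_eq', Finset.mem_univ, if_true,
      hNcard, ← hedef] at hbij
    have hp0 : (p : ℂ) ≠ 0 := Nat.cast_ne_zero.mpr hp.ne_zero
    have h4 : ((e * B + d : ℕ) : ℂ) = ((e * A + a : ℕ) : ℂ) := by
      push_cast at hbij ⊢
      apply mul_left_cancel₀ hp0
      linear_combination hbij
    have h5 : e * B + d = e * A + a := Nat.cast_injective h4
    have h6 : e ∣ e * A + a := h5 ▸ dvd_add (dvd_mul_right e B) (by rwa [show d = p - 1 by omega])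
    exact (Nat.dvd_add_right (dvd_mul_right e A)).mp h6
  -- the norm bound
  have hbound : (p * M : ℝ) - (d : ℝ) * d < (p * e : ℕ) := by
    let F : G → ℂ := fun g => (χ : G → ℂ) g * conj ((χ : G → ℂ) g)
    have hFc : ∀ g y, F (g * y * g⁻¹) = F y := fun g y => by simp only [F, hcf y g]
    have hFr : ∀ g, F g = ((‖(χ : G → ℂ) g‖ ^ 2 : ℝ) : ℂ) := fun g => by
      simp only [F]; rw [Complex.mul_conj']; push_cast; ring
    have h1 := hfib F
    rw [Finset.sum_product] at h1
    simp only [hFc, Finset.sum_const, Finset.card_univ, nsmul_eq_mul] at h1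
    have hPs' : ∑ y ∈ Ps, F y = (p : ℂ) * M - (d : ℂ) * d := by
      have e1 : ∑ y : P, F (y : G) = (p : ℂ) * M := (hrange F).trans hsq
      rw [← Finset.sum_subtype (Finset.univ.filter (fun y => y ∈ P)) (by simp) F] at e1
      have e2 : Ps = (Finset.univ.filter (fun y => y ∈ P)).erase 1 := by
        ext y; simp [Ps, and_comm]
      rw [e2, Finset.sum_erase_eq_sub (by simp [P.one_mem]), e1]
      simp [F, hd, Complex.conj_natCast]
    have htot : ∑ g : G, F g = (Nat.card G : ℂ) := by
      have := sum_mul_conj_irr χ χ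
      simpa [F] using this
    rw [hPs'] at h1
    simp only [hFr] at h1 htot
    have h1' : (Fintype.card G : ℝ) * ((p : ℝ) * M - (d : ℝ) * d) =
        ((p * e : ℕ) : ℝ) * ∑ s ∈ Sp, ‖(χ : G → ℂ) s‖ ^ 2 := by
      exact_mod_cast h1
    have htot' : ∑ g : G, ‖(χ : G → ℂ) g‖ ^ 2 = (Fintype.card G : ℝ) := by
      rw [Nat.card_eq_fintype_card] at htot
      exact_mod_cast htot
    have hlt : ∑ s ∈ Sp, ‖(χ : G → ℂ) s‖ ^ 2 < (Fintype.card G : ℝ) := by
      rw [← htot']
      refine Finset.sum_lt_sum_of_subset (Finset.subset_univ _) (Finset.mem_univ 1) ?_ ?_ (fun _ _ _ => sq_nonneg _)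
      · simp [Sp, hp.one_lt.ne]
      · rw [hd, Complex.norm_natCast]
        have : (0 : ℝ) < d := by exact_mod_cast (show 0 < d by omega)
        positivity
    have hG : (0 : ℝ) < Fintype.card G := by exact_mod_cast Fintype.card_pos
    have hpe0 : (0 : ℝ) < (p * e : ℕ) := by
      exact_mod_cast Nat.mul_pos hp.pos (by omega)
    nlinarith
  have ha0 : a = 0 := by
    by_contra hne
    have hae : e ≤ a := Nat.le_of_dvd (Nat.pos_of_ne_zero hne) hea
    obtain ⟨b, hb⟩ : ∃ b, d = a + b := ⟨d - a, by omega⟩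
    rw [hb, Nat.add_sub_cancel_left] at haM
    have hMr : (a : ℝ) * a + b ≤ M := by exact_mod_cast haM
    have hpr : (p : ℝ) = a + b + 1 := by rw [← hd1, hb]; push_cast; ring
    have her : (e : ℝ) ≤ a := by exact_mod_cast hae
    have he2r : (2 : ℝ) ≤ e := by exact_mod_cast he2
    have hdr : (d : ℝ) = a + b := by rw [hb]; push_cast; ring
    rw [hdr] at hbound
    push_cast at hbound
    have hp0 : (0 : ℝ) ≤ p := by positivity
    have k1 := mul_le_mul_of_nonneg_left hMr hp0
    -- p (a² - a) < p e - p + 1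
    have k2 : (p : ℝ) * ((a : ℝ) * a - a - e + 1) < 1 := by
      rw [hpr] at *
      nlinarith
    have k3 : (1 : ℝ) ≤ (a : ℝ) * a - a - e + 1 := by
      nlinarith
    have k4 : (1 : ℝ) ≤ p := by exact_mod_cast hp.pos
    nlinarith
  subst ha0
  -- the sum over `P` of the operators vanishes
  obtain ⟨A0, hA0, hA0'⟩ := sum_subgroup ρ P
  rw [hc, hrange (fun g => (χ : G → ℂ) g), hsum, hPcard] at hA0
  have hA00 : A0 = 0 := by
    have h := mul_left_cancel₀ (Nat.cast_ne_zero.mpr hp.ne_zero) hA0
    exact_mod_cast h.symm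
  have hzero : ∀ h ∈ H, h ≠ 1 → (χ : G → ℂ) h = 0 := by
    intro h hh h1
    have hop : ∑ y : P, ρ (y : G) = 0 := LinearMap.ext fun v => by
      simpa using hA0' hA00 v
    have h2 : ∑ y : P, (χ : G → ℂ) (h * (y : G)) = 0 := by
      rw [← hc]
      simp only [Representation.character, map_mul, ← map_sum, ← Finset.mul_sum, hop, mul_zero, map_zero]
    rw [Finset.sum_congr rfl (fun (y : P) _ => htrans h hh h1 (y : G) y.2), Finset.sum_const, Finset.card_univ,
      ← Nat.card_eq_fintype_card, hPcard, nsmul_eq_mul] at h2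
    exact (mul_eq_zero.mp h2).resolve_left (Nat.cast_ne_zero.mpr hp.ne_zero)
  -- the element `n`
  obtain ⟨g₀, hg₀⟩ := IsCyclic.exists_ofOrder_eq_natCard (α := H)
  obtain ⟨s, m, hm, hes⟩ := Nat.exists_eq_pow_mul_and_not_dvd (n := e) (by omega) 2 (by norm_num)
  have hog : orderOf (g₀ : G) = e := by
    rw [hedef, ← hg₀]
    exact orderOf_injective H.subtype H.subtype_injective g₀
  have hm0 : m ≠ 0 := by rintro rfl; exact hm (dvd_zero 2)
  set n : G := (g₀ : G) ^ m with hn
  have hon : orderOf n = 2 ^ s := by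
    rw [hn, orderOf_pow_of_dvd hm0 (by rw [hog, hes]; exact dvd_mul_left m _), hog, hes,
      Nat.mul_div_cancel _ (Nat.pos_of_ne_zero hm0)]
  have hs0 : s ≠ 0 := by
    rintro rfl
    rw [pow_zero, one_mul] at hes
    exact hm (hes ▸ even_iff_two_dvd.mp hee)
  have hdm : d = 2 ^ s * (t * m) := by
    rw [show d = p - 1 by omega, ← hte, hes]; ring
  have hdet : LinearMap.det (ρ n) = -1 := by
    refine det_eq_neg_one ρ n hon (Nat.even_pow.mpr ⟨even_two, hs0⟩) ⟨_, hdm⟩ ?_ ?_
    · rw [hdm, Nat.mul_div_cancel_left _ (pow_pos two_pos s)]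
      exact hto.mul (Nat.not_even_iff_odd.mp fun h => hm (even_iff_two_dvd.mp h))
    · intro k hk hks
      rw [hc]
      refine hzero _ (H.pow_mem (H.pow_mem g₀.2 m) k) ?_
      exact pow_ne_one_of_lt_orderOf hk.ne' (hon.symm ▸ hks)
  let δ : G →* ℂˣ := ((LinearMap.det : Module.End ℂ (Fin d → ℂ) →* ℂ).comp ρ).toHomUnits
  refine even_index_of_hom δ (g := n) ?_
  rw [← orderOf_units, MonoidHom.coe_toHomUnits]
  show orderOf (LinearMap.det (ρ n)) = 2
  rw [hdet]
  exact orderOf_eq_prime (by norm_num) (by norm_num)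

end CfsgLib.DetParity
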