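import Mathlib

/-!
# Normal subgroups in the presence of a self-centralizing element of prime order
-/

set_option autoImplicit false

namespace CfsgLib.SelfCent

open scoped commutatorElement

universe u

variable {G : Type u} [Group G] [Finite G] {p : ℕ} [hp : Fact p.Prime] {x : G}

theorem eq_of_mem (hx : orderOf x = p) {y : G} (hy : y ∈ Subgroup.zpowers x) (h1 : y ≠ 1) :
    Subgroup.zpowers y = Subgroup.zpowers x := by
  refine Subgroup.eq_of_le_of_card_ge (Subgroup.zpowers_le.mpr hy) ?_
  rw [Nat.card_zpowers, Nat.card_zpowers]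
  refine (((Nat.dvd_prime hp.out).mp ?_).resolve_left fun h => h1 (orderOf_eq_one_iff.mp h)).symm ▸ hx.le
  have := orderOf_dvd_natCard (⟨y, hy⟩ : Subgroup.zpowers x)
  rwa [Nat.card_zpowers, hx, ← orderOf_injective (Subgroup.zpowers x).subtype (Subgroup.subtype_injective _) ⟨y, hy⟩] at this

theorem sylow_eq (hx : orderOf x = p) (hC : Subgroup.centralizer ({x} : Set G) = Subgroup.zpowers x) :
    ∃ S : Sylow p G, (S : Subgroup G) = Subgroup.zpowers x := by
  have hPp : IsPGroup p (Subgroup.zpowers x) := IsPGroup.of_card (n := 1) (by rw [Nat.card_zpowers, hx, pow_one])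
  obtain ⟨S, hPS⟩ := hPp.exists_le_sylow
  refine ⟨S, le_antisymm ?_ hPS⟩
  haveI : Nontrivial (S : Subgroup G) := by
    refine ⟨⟨⟨x, hPS (Subgroup.mem_zpowers x)⟩, 1, fun h => ?_⟩⟩
    have h1 : x = 1 := congrArg Subtype.val h
    exact hp.out.one_lt.ne' (hx ▸ orderOf_eq_one_iff.mpr h1)
  haveI := S.isPGroup'.center_nontrivial
  obtain ⟨z, hz⟩ := exists_ne (1 : Subgroup.center (S : Subgroup G))
  have hz' := Subgroup.mem_center_iff.mp z.2
  have hzP : ((z : (S : Subgroup G)) : G) ∈ Subgroup.zpowers x := by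
    rw [← hC, Subgroup.mem_centralizer_singleton_iff]
    exact (congrArg Subtype.val (hz' ⟨x, hPS (Subgroup.mem_zpowers x)⟩)).symm
  intro g hg
  have h2 : x ∈ Subgroup.zpowers ((z : (S : Subgroup G)) : G) := by
    rw [eq_of_mem hx hzP (fun h => hz (by ext; exact h))]; exact Subgroup.mem_zpowers x
  obtain ⟨k, hk⟩ := h2
  rw [← hC, Subgroup.mem_centralizer_singleton_iff]
  have hc : Commute g ((z : (S : Subgroup G)) : G) := congrArg Subtype.val (hz' ⟨g, hg⟩)
  simp only at hk
  rw [← hk]
  exact hc.zpow_right k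

/-- The statement about normal subgroups. -/
theorem normal_subgroups (hx : orderOf x = p) (hC : Subgroup.centralizer ({x} : Set G) = Subgroup.zpowers x)
    (S : Subgroup G) [S.Normal] :
    (p ∣ Nat.card S → commutator G ≤ S) ∧ (¬ p ∣ Nat.card S → Nat.card S ∣ Nat.card {H : Subgroup G // Nat.card H = p} ∧
      Nat.card S % p = 1 ∧ orderOf (QuotientGroup.mk x : G ⧸ S) = p ∧
      Subgroup.centralizer ({(QuotientGroup.mk x : G ⧸ S)} : Set (G ⧸ S)) = Subgroup.zpowers (QuotientGroup.mk x : G ⧸ S)) := by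
  classical
  obtain ⟨P, hP⟩ := sylow_eq hx hC
  have hPcard : Nat.card (P : Subgroup G) = p := by rw [hP, Nat.card_zpowers, hx]
  constructor
  · intro hdvd
    obtain ⟨y, hy⟩ := exists_prime_orderOf_dvd_card' (G := S) p hdvd
    rw [← Subgroup.orderOf_coe] at hy
    obtain ⟨T, hT⟩ := (IsPGroup.of_card (n := 1) (G := Subgroup.zpowers (y : G))
      (by rw [Nat.card_zpowers, hy, pow_one])).exists_le_sylow
    obtain ⟨g, hg⟩ := MulAction.exists_smul_eq G P T
    have hyT : (y : G) ∈ ((g • P : Sylow p G) : Subgroup G) := hg ▸ hT (Subgroup.mem_zpowers _)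
    rw [Sylow.coe_subgroup_smul, Subgroup.mem_pointwise_smul_iff_inv_smul_mem, ← map_inv, MulAut.smul_def,
      MulAut.conj_apply, inv_inv, hP] at hyT
    have hne : g⁻¹ * (y : G) * g ≠ 1 := fun h => by
      have h' : (y : G) = 1 := by
        have := congrArg (fun z => g * z * g⁻¹) h
        simpa [mul_assoc] using this
      exact hp.out.one_lt.ne' (hy ▸ orderOf_eq_one_iff.mpr h')
    have hxS : x ∈ S := by
      have h2 : x ∈ Subgroup.zpowers (g⁻¹ * (y : G) * g) := by
        rw [eq_of_mem hx hyT hne]; exact Subgroup.mem_zpowers x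
      refine (Subgroup.zpowers_le.mpr ?_) h2
      have := ‹S.Normal›.conj_mem _ y.2 g⁻¹
      rwa [inv_inv] at this
    -- every element agrees modulo `S` with one normalizing `zpowers x`
    have hnorm : ∀ a : G, ∃ s ∈ S, ∃ i : ℤ, (s * a) * x * (s * a)⁻¹ = x ^ i := by
      intro a
      have hPS : (P : Subgroup G) ≤ S := hP.le.trans (Subgroup.zpowers_le.mpr hxS)
      have hsup := Sylow.normalizer_sup_eq_top (P.subtype hPS)
      have ha : a ∈ Subgroup.normalizer ((P : Subgroup G) : Set G) ⊔ S := by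
        have h1 : ((P.subtype hPS : Sylow p S) : Subgroup S).map S.subtype = (P : Subgroup G) :=
          Subgroup.map_subgroupOf_eq_of_le hPS
        rw [h1] at hsup
        rw [hsup]; exact Subgroup.mem_top a
      rw [sup_comm] at ha
      obtain ⟨s, hs, n, hn, rfl⟩ := Subgroup.mem_sup_of_normal_left.mp ha
      rw [hP] at hn
      obtain ⟨i, hi⟩ : n * x * n⁻¹ ∈ Subgroup.zpowers x :=
        (Subgroup.mem_normalizer_iff.mp hn x).mp (Subgroup.mem_zpowers x)
      exact ⟨s⁻¹, S.inv_mem hs, i, by rw [inv_mul_cancel_left]; exact hi.symm⟩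
    refine Subgroup.commutator_le.mpr fun a _ b _ => ?_
    obtain ⟨s, hs, i, hi⟩ := hnorm a
    obtain ⟨t, ht, j, hj⟩ := hnorm b
    have key : ⁅s * a, t * b⁆ ∈ Subgroup.zpowers x := by
      rw [← hC, Subgroup.mem_centralizer_singleton_iff]
      set n := s * a
      set m := t * b
      have h1 : n * m * x * (n * m)⁻¹ = x ^ (i * j) := by
        rw [show n * m * x * (n * m)⁻¹ = n * (m * x * m⁻¹) * n⁻¹ by group, hj, ← conj_zpow, hi, ← zpow_mul]
      have h2 : m * n * x * (m * n)⁻¹ = x ^ (i * j) := by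
        rw [show m * n * x * (m * n)⁻¹ = m * (n * x * n⁻¹) * m⁻¹ by group, hi, ← conj_zpow, hj, ← zpow_mul,
          mul_comm]
      have h3 : ⁅n, m⁆ * (x ^ (i * j)) * ⁅n, m⁆⁻¹ = x ^ (i * j) := by
        conv_lhs => rw [← h2]
        rw [← h1]
        simp only [commutatorElement_def]; group
      have hne : x ^ (i * j) ≠ 1 := by
        rw [← h1]; intro h
        rw [conj_eq_one_iff] at h
        exact hp.out.one_lt.ne' (hx ▸ orderOf_eq_one_iff.mpr h)
      have hxmem : x ∈ Subgroup.zpowers (x ^ (i * j)) := by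
        rw [eq_of_mem hx (Subgroup.zpow_mem_zpowers x _) hne]; exact Subgroup.mem_zpowers x
      obtain ⟨k, hk⟩ := hxmem
      simp only at hk
      have hc : Commute ⁅n, m⁆ (x ^ (i * j)) := mul_inv_eq_iff_eq_mul.mp h3
      rw [← hk]
      exact hc.zpow_right k
    have h4 : ⁅s * a, t * b⁆ ∈ S := (Subgroup.zpowers_le.mpr hxS) key
    rw [← QuotientGroup.eq_one_iff, ← QuotientGroup.mk'_apply, map_commutatorElement] at h4 ⊢
    rwa [map_mul, map_mul, show QuotientGroup.mk' S s = 1 from (QuotientGroup.eq_one_iff s).mpr hs,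
      show QuotientGroup.mk' S t = 1 from (QuotientGroup.eq_one_iff t).mpr ht, one_mul, one_mul] at h4
  · intro hnd
    have hdisj : ∀ s ∈ S, s ∈ Subgroup.zpowers x → s = 1 := by
      intro s hs hsx
      by_contra h1
      apply hnd
      have h2 : x ∈ S := (Subgroup.zpowers_le.mpr hs) (by rw [eq_of_mem hx hsx h1]; exact Subgroup.mem_zpowers x)
      have h3 := orderOf_dvd_natCard (⟨x, h2⟩ : S)
      rw [← orderOf_injective S.subtype S.subtype_injective ⟨x, h2⟩] at h3
      exact hx ▸ h3
    have hxS : x ∉ S := fun h => hp.out.one_lt.ne' (hx ▸ orderOf_eq_one_iff.mpr (hdisj x h (Subgroup.mem_zpowers x)))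
    -- the map `t ↦ [t, x]` permutes `S`
    let θ : S → S := fun t => ⟨(t : G) * (x * (t : G)⁻¹ * x⁻¹),
      S.mul_mem t.2 (‹S.Normal›.conj_mem _ (S.inv_mem t.2) x)⟩
    have hθ : Function.Injective θ := by
      intro t u htu
      have h1 : (t : G) * (x * (t : G)⁻¹ * x⁻¹) = (u : G) * (x * (u : G)⁻¹ * x⁻¹) := congrArg Subtype.val htu
      have h2 : (u : G)⁻¹ * (t : G) ∈ Subgroup.centralizer ({x} : Set G) := by
        rw [Subgroup.mem_centralizer_singleton_iff]
        calc (u : G)⁻¹ * (t : G) * x = (u : G)⁻¹ * ((t : G) * (x * (t : G)⁻¹ * x⁻¹)) * x * (t : G) := by group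
          _ = x * ((u : G)⁻¹ * (t : G)) := by rw [h1]; group
      rw [hC] at h2
      exact Subtype.ext (inv_mul_eq_one.mp (hdisj _ (S.mul_mem (S.inv_mem u.2) t.2) h2)).symm
    refine ⟨?_, ?_, ?_, ?_⟩
    · -- divisibility
      have hequiv : Nat.card {H : Subgroup G // Nat.card H = p} = Nat.card (Sylow p G) := by
        refine (Nat.card_congr ?_).symm
        refine Equiv.ofBijective (fun T => ⟨(T : Subgroup G), ?_⟩) ⟨fun A B h => Sylow.ext (congrArg Subtype.val h), ?_⟩
        · rw [Nat.card_congr (Sylow.equiv T P).toEquiv, hPcard]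
        · rintro ⟨H, hH⟩
          obtain ⟨T, hT⟩ := (IsPGroup.of_card (n := 1) (G := H) (by rw [hH, pow_one])).exists_le_sylow
          refine ⟨T, Subtype.ext (Subgroup.eq_of_le_of_card_ge hT ?_).symm⟩
          rw [hH, Nat.card_congr (Sylow.equiv T P).toEquiv, hPcard]
      rw [hequiv, Sylow.card_eq_index_normalizer P]
      set N := Subgroup.normalizer ((P : Subgroup G) : Set G) with hN
      have hNS : ∀ n ∈ N, n ∈ S → n = 1 := by
        intro n hn hnS
        have h1 : n * x * n⁻¹ * x⁻¹ ∈ Subgroup.zpowers x :=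
          Subgroup.mul_mem _ (hP.le ((Subgroup.mem_normalizer_iff.mp hn x).mp (hP.ge (Subgroup.mem_zpowers x))))
            (Subgroup.inv_mem _ (Subgroup.mem_zpowers x))
        have h2 : θ ⟨n, hnS⟩ = θ 1 := by
          apply Subtype.ext
          have h3 := hdisj _ (S.mul_mem hnS (‹S.Normal›.conj_mem _ (S.inv_mem hnS) x)) (by simpa [mul_assoc] using h1)
          simpa [θ] using h3
        exact congrArg Subtype.val (hθ h2)
      have hdvd := Subgroup.card_dvd_of_injective ((QuotientGroup.mk' S).comp N.subtype) (by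
        rw [← MonoidHom.ker_eq_bot_iff, Subgroup.eq_bot_iff_forall]
        intro n hn
        exact Subtype.ext (hNS n n.2 ((QuotientGroup.eq_one_iff _).mp hn)))
      rw [← Subgroup.index_eq_card] at hdvd
      obtain ⟨c, hc⟩ := hdvd
      refine ⟨c, Nat.eq_of_mul_eq_mul_left (Nat.card_pos (α := N)) ?_⟩
      show Nat.card N * N.index = Nat.card N * (Nat.card S * c)
      rw [Subgroup.card_mul_index, ← Subgroup.card_mul_index S, hc]
      ring
    · -- congruence
      let φ : Subgroup.zpowers x →* MulAut S := (MulAut.conjNormal (H := S)).comp (Subgroup.zpowers x).subtype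
      letI : MulAction (Subgroup.zpowers x) S := MulAction.compHom S φ
      have hPp : IsPGroup p (Subgroup.zpowers x) := IsPGroup.of_card (n := 1) (by rw [Nat.card_zpowers, hx, pow_one])
      have hmod := hPp.card_modEq_card_fixedPoints S
      have hfix : MulAction.fixedPoints (Subgroup.zpowers x) S = {1} := by
        ext s
        simp only [MulAction.mem_fixedPoints, Set.mem_singleton_iff]
        constructor
        · intro h
          have h1 := congrArg Subtype.val (h ⟨x, Subgroup.mem_zpowers x⟩)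
          change ((MulAut.conjNormal x s : S) : G) = (s : G) at h1
          rw [MulAut.conjNormal_apply] at h1
          apply hθ
          apply Subtype.ext
          show (s : G) * (x * (s : G)⁻¹ * x⁻¹) = (1 : G) * (x * (1 : G)⁻¹ * x⁻¹)
          calc (s : G) * (x * (s : G)⁻¹ * x⁻¹) = (x * (s : G) * x⁻¹) * (x * (s : G)⁻¹ * x⁻¹) := by rw [h1]
            _ = _ := by group
        · rintro rfl g
          exact map_one (φ g)
      rw [hfix, Nat.card_eq_fintype_card (α := ({1} : Set S)), Set.card_singleton] at hmod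
      exact Eq.trans hmod (Nat.one_mod_eq_one.mpr hp.out.one_lt.ne')
    · exact orderOf_eq_prime (by rw [← QuotientGroup.mk_pow, ← hx, pow_orderOf_eq_one]; rfl)
        (fun h => hxS ((QuotientGroup.eq_one_iff x).mp h))
    · apply le_antisymm
      · intro q hq
        obtain ⟨g, rfl⟩ := QuotientGroup.mk_surjective q
        rw [Subgroup.mem_centralizer_singleton_iff, ← QuotientGroup.mk_mul, ← QuotientGroup.mk_mul, QuotientGroup.eq] at hq
        have h1 : g * x * g⁻¹ * x⁻¹ ∈ S := by
          have h2 : (g * x)⁻¹ * (x * g) ∈ S := hq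
          have h3 := ‹S.Normal›.conj_mem _ (S.inv_mem h2) (x * g)
          convert h3 using 1
          group
        obtain ⟨t, ht⟩ := (Finite.injective_iff_surjective.mp hθ) ⟨_, h1⟩
        have ht' : (t : G) * (x * (t : G)⁻¹ * x⁻¹) = g * x * g⁻¹ * x⁻¹ := congrArg Subtype.val ht
        have h4 : (t : G)⁻¹ * g ∈ Subgroup.zpowers x := by
          rw [← hC, Subgroup.mem_centralizer_singleton_iff]
          calc (t : G)⁻¹ * g * x = (t : G)⁻¹ * (g * x * g⁻¹ * x⁻¹) * x * g := by group
            _ = x * ((t : G)⁻¹ * g) := by rw [← ht']; group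
        obtain ⟨k, hk⟩ := h4
        refine ⟨k, ?_⟩
        simp only at hk ⊢
        rw [← QuotientGroup.mk_zpow, hk, QuotientGroup.eq, mul_inv_rev, inv_inv]
        rw [mul_assoc]
        have := ‹S.Normal›.conj_mem _ t.2 g⁻¹
        simpa [mul_assoc] using this
      · exact Subgroup.zpowers_le.mpr (Subgroup.mem_centralizer_singleton_iff.mpr rfl)

end CfsgLib.SelfCent
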